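import Mathlib

/-!
Subgroups of powers of a non-abelian simple group.
-/

set_option autoImplicit false

namespace CfsgLib.ONS54

variable {A T : Type*} [Group A] [Group T] [IsSimpleGroup T]

theorem ker_eq_of_le {f g : A →* T} (hf : Function.Surjective f) (hg : Function.Surjective g)
    (h : f.ker ≤ g.ker) : f.ker = g.ker := by
  haveI : (g.ker.map f).Normal := Subgroup.Normal.map inferInstance f hf
  rcases (inferInstance : (g.ker.map f).Normal).eq_bot_or_eq_top with h0 | h0
  · refine le_antisymm h fun x hx => ?_
    have : f x ∈ g.ker.map f := Subgroup.mem_map_of_mem f hx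
    rwa [h0, Subgroup.mem_bot] at this
  · exfalso
    obtain ⟨t, ht⟩ := exists_ne (1 : T)
    obtain ⟨a, rfl⟩ := hg t
    obtain ⟨k, hk, hka⟩ : f a ∈ g.ker.map f := h0 ▸ Subgroup.mem_top _
    have : k⁻¹ * a ∈ f.ker := by rw [MonoidHom.mem_ker, map_mul, map_inv, hka, inv_mul_cancel]
    have h2 := mul_mem (show k ∈ g.ker from hk) (h this)
    rw [mul_inv_cancel_left] at h2
    exact ht h2

/-- Maps onto a non-abelian simple group with distinct kernels are jointly surjective. -/
theorem jointly_surjective (hT : ¬ IsMulCommutative T) {ι : Type*} [Finite ι] (f : ι → A →* T)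
    (hf : ∀ i, Function.Surjective (f i)) (hker : ∀ i j, i ≠ j → (f i).ker ≠ (f j).ker) (x : ι → T) :
    ∃ a : A, ∀ i, f i a = x i := by
  classical
  haveI := Fintype.ofFinite ι
  have key : ∀ (S : Finset ι) (c : ι), c ∉ S → ∀ t : T, ∃ a : A, f c a = t ∧ ∀ d ∈ S, f d a = 1 := by
    intro S
    induction S using Finset.induction with
    | empty => exact fun c _ t => (hf c t).imp fun a ha => ⟨ha, by simp⟩
    | insert d S hd ih =>
      intro c hc t
      rw [Finset.mem_insert, not_or] at hc
      let M : Subgroup A :=
        { carrier := {a | ∀ e ∈ insert d S, f e a = 1}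
          one_mem' := fun e _ => map_one (f e)
          mul_mem' := fun {a b} ha hb e he => by rw [map_mul, ha e he, hb e he, one_mul]
          inv_mem' := fun {a} ha e he => by rw [map_inv, ha e he, inv_one] }
      haveI : M.Normal := ⟨fun a ha g e he => by
        rw [map_mul, map_mul, ha e he, mul_one, map_inv, mul_inv_cancel]⟩
      haveI : (M.map (f c)).Normal := Subgroup.Normal.map inferInstance _ (hf c)
      rcases (inferInstance : (M.map (f c)).Normal).eq_bot_or_eq_top with h0 | h0
      swap
      · obtain ⟨a, ha, hat⟩ : t ∈ M.map (f c) := h0 ▸ Subgroup.mem_top t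
        exact ⟨a, hat, ha⟩
      exfalso
      apply hT
      -- the kernel of `f d` is sent onto `T`
      haveI : ((f d).ker.map (f c)).Normal := Subgroup.Normal.map inferInstance _ (hf c)
      have hd' : (f d).ker.map (f c) = ⊤ := by
        refine ((inferInstance : ((f d).ker.map (f c)).Normal).eq_bot_or_eq_top).resolve_left fun h1 => ?_
        refine hker d c (Ne.symm hc.1) (ker_eq_of_le (hf d) (hf c) fun y hy => ?_)
        have : f c y ∈ (f d).ker.map (f c) := Subgroup.mem_map_of_mem _ hy
        rwa [h1, Subgroup.mem_bot] at this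
      refine ⟨⟨fun p q => ?_⟩⟩
      obtain ⟨a, ha, haS⟩ := ih c hc.2 p
      obtain ⟨b, hb, hbq⟩ : q ∈ (f d).ker.map (f c) := hd' ▸ Subgroup.mem_top q
      have hm : a * b * a⁻¹ * b⁻¹ ∈ M := fun e he => by
        rcases Finset.mem_insert.mp he with rfl | he
        · simp [MonoidHom.mem_ker.mp hb]
        · simp [haS e he]
      have : f c (a * b * a⁻¹ * b⁻¹) ∈ M.map (f c) := Subgroup.mem_map_of_mem _ hm
      rw [h0, Subgroup.mem_bot] at this
      simp only [map_mul, map_inv, ha, hbq] at this
      calc p * q = p * q * p⁻¹ * q⁻¹ * (q * p) := by group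
        _ = q * p := by rw [this, one_mul]
  have comb : ∀ S : Finset ι, ∃ a : A, ∀ i, f i a = if i ∈ S then x i else 1 := by
    intro S
    induction S using Finset.induction with
    | empty => exact ⟨1, fun i => by simp⟩
    | insert c S hc ih =>
      obtain ⟨a, ha⟩ := ih
      obtain ⟨b, hb, hbS⟩ := key (Finset.univ.erase c) c (Finset.notMem_erase _ _) (x c)
      refine ⟨b * a, fun i => ?_⟩
      rw [map_mul, ha]
      by_cases hic : i = c
      · subst hic; simp [hc, hb]
      · simp [hbS i (by simp [hic]), hic]
  obtain ⟨a, ha⟩ := comb Finset.univ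
  exact ⟨a, fun i => by simpa using ha i⟩

/-- The automorphism relating two maps with the same kernel. -/
theorem exists_aut {f g : A →* T} (hf : Function.Surjective f) (hg : Function.Surjective g)
    (h : f.ker = g.ker) : ∃ φ : T ≃* T, ∀ a, g a = φ (f a) := by
  refine ⟨(QuotientGroup.quotientKerEquivOfSurjective f hf).symm.trans
    ((QuotientGroup.quotientMulEquivOfEq h).trans (QuotientGroup.quotientKerEquivOfSurjective g hg)), fun a => ?_⟩
  have e : (QuotientGroup.quotientKerEquivOfSurjective f hf).symm (f a) = (a : A ⧸ f.ker) :=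
    (MulEquiv.symm_apply_eq _).mpr rfl
  rw [MulEquiv.trans_apply, e, MulEquiv.trans_apply, QuotientGroup.quotientMulEquivOfEq_mk]
  rfl

variable {ι : Type*} [Finite ι]

/-- A map from a power of `T` onto `T` factors through one coordinate. -/
theorem exists_factor [Finite T] (hT : ¬ IsMulCommutative T) (g : (ι → T) →* T)
    (hg : Function.Surjective g) : ∃ i, g.ker = (Pi.evalMonoidHom (fun _ : ι => T) i).ker := by
  classical
  by_contra hall
  push_neg at hall
  have hsurj : ∀ i, Function.Surjective (Pi.evalMonoidHom (fun _ : ι => T) i) := fun i t =>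
    ⟨Function.const ι t, rfl⟩
  have hj := jointly_surjective hT (fun o : Option ι => o.elim g (Pi.evalMonoidHom (fun _ : ι => T)))
    (fun o => by cases o with | none => exact hg | some i => exact hsurj i) (fun o o' hne => by
      cases o with
      | none =>
        cases o' with
        | none => exact absurd rfl hne
        | some j => exact hall j
      | some i =>
        cases o' with
        | none => exact fun h => hall i h.symm
        | some j =>
          intro h
          obtain ⟨t, ht⟩ := exists_ne (1 : T)
          have hij : i ≠ j := fun e => hne (e ▸ rfl)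
          have hm : Pi.mulSingle i t ∈ (Pi.evalMonoidHom (fun _ : ι => T) j).ker := by
            simp [MonoidHom.mem_ker, Pi.mulSingle_eq_of_ne (Ne.symm hij)]
          have h' : (Pi.evalMonoidHom (fun _ : ι => T) i).ker = (Pi.evalMonoidHom (fun _ : ι => T) j).ker := h
          rw [← h'] at hm
          simp [MonoidHom.mem_ker] at hm
          exact ht hm)
  haveI := Fintype.ofFinite ι
  haveI := Fintype.ofFinite T
  let Φ : (ι → T) → (Option ι → T) := fun a o => o.elim (g a) a
  have hΦ : Function.Surjective Φ := fun x => by
    obtain ⟨a, ha⟩ := hj x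
    exact ⟨a, funext fun o => by cases o with | none => exact ha none | some i => exact ha (some i)⟩
  have h1 := Fintype.card_le_of_surjective Φ hΦ
  rw [Fintype.card_fun, Fintype.card_fun, Fintype.card_option] at h1
  exact absurd h1 (not_le.mpr (Nat.pow_lt_pow_right Fintype.one_lt_card (Nat.lt_succ_self _)))

end CfsgLib.ONS54
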